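import Cfsg.Agent.H21.PG.Cases

/-!
# The digits used along a primary flag (helper21, S4884 block G): `chainT`, `chainZ`, `chainD`
-/

set_option autoImplicit false
set_option linter.unusedSectionVars false

namespace Cfsg.Agent.H21.PG

open Cfsg.Agent.TitsThree.Siegel Module Submodule Cfsg.Agent.H439.CC

universe u v

section

variable {F : Type u} [Field F] [Finite F] {V : Type v} [AddCommGroup V] [Module F V] [FiniteDimensional F V]
  {q : ℕ} [hqp : Fact q.Prime]

theorem chainT_aux {Adm : Submodule F V → Prop} {X : Set (V ≃ₗ[F] V)} (hq : (q : F) ≠ 0) :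
    ∀ (ds : List ℕ) (A : Submodule F V), PF Adm X ds A → (∀ k ∈ ds, 0 < k) → ds.Nodup → Adm A →
    (∀ x ∈ X, A.map (x : V →ₗ[F] V) = A) →
    ∃ W : Submodule F V, A ≤ W ∧ Adm W ∧ (∀ x ∈ X, W.map (x : V →ₗ[F] V) = W) ∧
      finrank F W = finrank F A + ds.sum ∧
      ∃ T : (V ≃ₗ[F] V) → Finset ℕ, (∀ x ∈ X, x ^ q = 1 → (∀ k ∈ T x, k ∈ ds ∧
          orderOf ((Nat.card F : ℕ) : ZMod q) ∣ k) ∧
          finrank F (W ⊓ Rg x : Submodule F V) = finrank F (A ⊓ Rg x : Submodule F V) + ∑ k ∈ T x, k) ∧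
        (∀ x ∈ X, ∀ y ∈ X, x ^ q = 1 → y ^ q = 1 → Rg x ≤ Cg y → Disjoint (T x) (T y)) := by
  classical
  intro ds
  induction ds with
  | nil =>
    intro A _ _ _ hA hst
    refine ⟨A, le_rfl, hA, hst, by rw [List.sum_nil, add_zero], fun _ => ∅, fun x _ _ => ⟨?_, ?_⟩, ?_⟩
    · intro k hk
      exact absurd hk (Finset.notMem_empty k)
    · rw [Finset.sum_empty, add_zero]
    · intro _ _ _ _ _ _ _
      exact Finset.disjoint_empty_left _
  | cons k ds ih =>
    rintro A ⟨B, h1, h2, h3, h4, h5, h6⟩ hpos hnd hA hst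
    rw [List.nodup_cons] at hnd
    obtain ⟨W, hBW, hW, hWst, hdim, T, hT, hTd⟩ := ih B h6 (fun i hi => hpos i (List.mem_cons_of_mem _ hi)) hnd.2 h2 h3
    have hmem : ∀ x ∈ X, x ^ q = 1 → k ∉ T x := fun x hx hxq hk => hnd.1 ((hT x hx hxq).1 k hk).1
    have hcase : ∀ x ∈ X, x ^ q = 1 → ¬ finrank F (B ⊓ Rg x : Submodule F V) = finrank F (A ⊓ Rg x : Submodule F V) →
        (∀ v ∈ B, Nm q x v ∈ A) := fun x hx hxq hne =>
      (prim_cases hxq hq (Sb.of_map (hst x hx)) (Sb.of_map (h3 x hx)) h1.le (h5 x hx)).resolve_left hne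
    let T' : (V ≃ₗ[F] V) → Finset ℕ := fun x =>
      if finrank F (B ⊓ Rg x : Submodule F V) = finrank F (A ⊓ Rg x : Submodule F V) then T x else insert k (T x)
    refine ⟨W, h1.le.trans hBW, hW, hWst, by rw [hdim, h4, List.sum_cons]; ring, T', ?_, ?_⟩
    · intro x hx hxq
      have hA' := Sb.of_map (hst x hx)
      have hB' := Sb.of_map (h3 x hx)
      by_cases he : finrank F (B ⊓ Rg x : Submodule F V) = finrank F (A ⊓ Rg x : Submodule F V)
      · have hT' : T' x = T x := if_pos he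
        rw [hT', ← he]
        exact ⟨fun i hi => ⟨List.mem_cons_of_mem _ ((hT x hx hxq).1 i hi).1, ((hT x hx hxq).1 i hi).2⟩,
          (hT x hx hxq).2⟩
      · have hT' : T' x = insert k (T x) := if_neg he
        have h7 := finrank_of_Nm hxq hq hA' hB' h1.le (hcase x hx hxq he)
        have h8 : finrank F (B ⊓ Rg x : Submodule F V) = finrank F (A ⊓ Rg x : Submodule F V) + k := by omega
        rw [hT']
        refine ⟨?_, ?_⟩
        · intro i hi
          rcases Finset.mem_insert.1 hi with rfl | hi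
          · refine ⟨List.mem_cons_self, ?_⟩
            have h9 := dvd_inf hxq hq hB'
            have h10 := dvd_inf hxq hq hA'
            rw [h8] at h9
            exact (Nat.dvd_add_right h10).1 h9
          · exact ⟨List.mem_cons_of_mem _ ((hT x hx hxq).1 i hi).1, ((hT x hx hxq).1 i hi).2⟩
        · rw [(hT x hx hxq).2, h8, Finset.sum_insert (hmem x hx hxq)]
          ring
    · intro x hx y hy hxq hyq hxy
      have h7 := hTd x hx y hy hxq hyq hxy
      have h8 : (finrank F (B ⊓ Rg x : Submodule F V) = finrank F (A ⊓ Rg x : Submodule F V)) ∨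
          (finrank F (B ⊓ Rg y : Submodule F V) = finrank F (A ⊓ Rg y : Submodule F V)) := by
        by_contra hcon
        push Not at hcon
        have h9 := hcase y hy hyq hcon.2
        apply hcon.1
        have h10 : B ⊓ Rg x = A ⊓ Rg x := by
          apply le_antisymm
          · rintro v ⟨hv, hvR⟩
            refine ⟨?_, hvR⟩
            have h11 := h9 v hv
            rw [Nm_fix (mem_Cg.1 (hxy hvR))] at h11
            have h12 : v = (q : F)⁻¹ • ((q : F) • v) := by rw [smul_smul, inv_mul_cancel₀ hq, one_smul]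
            rw [h12]
            exact smul_mem _ _ h11
          · exact inf_le_inf_right _ h1.le
        rw [h10]
      have hk1 := hmem x hx hxq
      have hk2 := hmem y hy hyq
      by_cases hex : finrank F (B ⊓ Rg x : Submodule F V) = finrank F (A ⊓ Rg x : Submodule F V)
      · have e1 : T' x = T x := if_pos hex
        rw [e1]
        by_cases hey : finrank F (B ⊓ Rg y : Submodule F V) = finrank F (A ⊓ Rg y : Submodule F V)
        · have e2 : T' y = T y := if_pos hey
          rw [e2]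
          exact h7
        · have e2 : T' y = insert k (T y) := if_neg hey
          rw [e2, Finset.disjoint_insert_right]
          exact ⟨hk1, h7⟩
      · have e1 : T' x = insert k (T x) := if_neg hex
        have hey := h8.resolve_left hex
        have e2 : T' y = T y := if_pos hey
        rw [e1, e2, Finset.disjoint_insert_left]
        exact ⟨hk2, h7⟩

theorem mem_dig {N k : ℕ} (h : k ∈ dig N) : ∃ i, k = 2 ^ i := by
  obtain ⟨i, _, rfl⟩ := List.mem_map.1 h
  exact ⟨i, rfl⟩

theorem nodup_dig (N : ℕ) : (dig N).Nodup :=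
  (Nat.bitIndices_sorted (n := N)).nodup.map (Nat.pow_right_injective le_rfl)

/-- a set of powers of two with sum `2 ^ a` contains `2 ^ a` -/
theorem mem_of_sum {S : Finset ℕ} (hS : ∀ k ∈ S, ∃ i, k = 2 ^ i) {a : ℕ} (h : ∑ k ∈ S, k = 2 ^ a) : 2 ^ a ∈ S := by
  classical
  by_contra hn
  have h1 : ∀ k ∈ S, k < 2 ^ a := by
    intro k hk
    have h2 : k ≤ ∑ k ∈ S, k := Finset.single_le_sum (f := fun k : ℕ => k) (fun _ _ => Nat.zero_le _) hk
    rw [h] at h2
    exact lt_of_le_of_ne h2 fun h3 => hn (h3 ▸ hk)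
  let I : Finset ℕ := (Finset.range a).filter fun i => 2 ^ i ∈ S
  have h2 : S = I.image fun i => 2 ^ i := by
    ext k
    rw [Finset.mem_image]
    constructor
    · intro hk
      obtain ⟨i, rfl⟩ := hS k hk
      refine ⟨i, Finset.mem_filter.2 ⟨Finset.mem_range.2 ?_, hk⟩, rfl⟩
      exact (Nat.pow_lt_pow_iff_right (by norm_num)).1 (h1 _ hk)
    · rintro ⟨i, hi, rfl⟩
      exact (Finset.mem_filter.1 hi).2
  have h3 : ∑ k ∈ S, k = ∑ i ∈ I, 2 ^ i := by
    rw [h2, Finset.sum_image]
    intro i _ j _ hij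
    exact Nat.pow_right_injective le_rfl hij
  have h4 : ∑ i ∈ I, 2 ^ i < 2 ^ a := Nat.geomSum_lt le_rfl fun i hi => Finset.mem_range.1 (Finset.mem_filter.1 hi).1
  omega

end

theorem chainT : ChainT.{u, v} := by
  intro F _ _ V _ _ _ q _ Adm X hq
  exact chainT_aux hq

theorem chainZ : ChainZ.{u, v} := by
  intro F _ _ V _ _ _ q _ Adm X m hq hpow hA hPF
  obtain ⟨W, _, hW, hst, hdim, T, hT, _⟩ := chainT F V q Adm X hq (dig m) ⊥ hPF
    (fun k hk => by obtain ⟨i, rfl⟩ := mem_dig hk; positivity) (nodup_dig m) hA (fun x _ => Submodule.map_bot _)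
  refine ⟨W, hW, hst, by rw [hdim, finrank_bot, dig_sum, zero_add], ?_⟩
  intro x hx hxq
  have h1 : T x = ∅ := by
    rw [Finset.eq_empty_iff_forall_notMem]
    intro k hk
    obtain ⟨h2, h3⟩ := (hT x hx hxq).1 k hk
    obtain ⟨i, rfl⟩ := mem_dig h2
    obtain ⟨a, _, ha⟩ := (Nat.dvd_prime_pow Nat.prime_two).1 h3
    exact hpow ⟨a, ha⟩
  have h2 := (hT x hx hxq).2
  rw [h1, Finset.sum_empty, bot_inf_eq, finrank_bot] at h2
  exact Submodule.finrank_eq_zero.1 h2

theorem chainD : ChainD.{u, v} := by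
  intro F _ _ V _ _ _ q _ Adm X m a hq hA hPF
  obtain ⟨W, _, hW, hst, hdim, T, hT, hTd⟩ := chainT F V q Adm X hq (dig m) ⊥ hPF
    (fun k hk => by obtain ⟨i, rfl⟩ := mem_dig hk; positivity) (nodup_dig m) hA (fun x _ => Submodule.map_bot _)
  refine ⟨W, hW, hst, by rw [hdim, finrank_bot, dig_sum, zero_add], ?_⟩
  intro x hx y hy hxq hyq hxy h1 h2
  have key : ∀ z ∈ X, z ^ q = 1 → finrank F (W ⊓ Rg z : Submodule F V) = 2 ^ a → 2 ^ a ∈ T z := by
    intro z hz hzq h3
    refine mem_of_sum (fun k hk => mem_dig ((hT z hz hzq).1 k hk).1) ?_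
    have h4 := (hT z hz hzq).2
    rw [bot_inf_eq, finrank_bot, zero_add] at h4
    rw [← h4, h3]
  exact Finset.disjoint_left.1 (hTd x hx y hy hxq hyq hxy) (key x hx hxq h1) (key y hy hyq h2)

theorem caseH' : CaseH.{u, v} := caseH chainZ chainD

/-- **CoreU** -/
theorem coreU : CoreU.{u, v} := coreU_of chainZ chainD

end Cfsg.Agent.H21.PG
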